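import Mathlib
import Cfsg.Agent.Lib.Helper50.FOT.Defs

/-!
# A finite solvable group never has exactly six Sylow `5`-subgroups

`card_sylow_five_ne_six`.  Proof: a nontrivial normal `q`-subgroup `A` normalises every
Sylow `5`-subgroup (otherwise, `P` being transitive on the other five Sylow subgroups, `A`
would be transitive on all six, and `6` is not a prime power); then `G ⧸ A` has again six
Sylow `5`-subgroups and we induct.
-/

set_option autoImplicit false
set_option linter.style.haveILetI false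

namespace Cfsg.Agent.Lib.Helper78.FOT

universe u

/-- a nontrivial finite solvable group has a nontrivial normal `p`-subgroup -/
theorem exists_normal_pgroup_ne_bot (X : Type u) [Group X] [Finite X] [Group.IsSolvable X]
    [Nontrivial X] :
    ∃ (p : ℕ) (P : Subgroup X), p.Prime ∧ P.Normal ∧ IsPGroup p P ∧ P ≠ ⊥ := by
  classical
  have hex : ∃ n, derivedSeries X n = ⊥ := Group.IsSolvable.solvable
  have h0 : Nat.find hex ≠ 0 := by
    intro h
    have h1 := Nat.find_spec hex
    rw [h, derivedSeries_zero] at h1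
    exact top_ne_bot h1
  obtain ⟨n, hn⟩ := Nat.exists_eq_succ_of_ne_zero h0
  have hD : derivedSeries X n ≠ ⊥ := by
    intro h
    have := Nat.find_min' hex h
    omega
  have hDD : ⁅derivedSeries X n, derivedSeries X n⁆ = ⊥ := by
    have h1 := Nat.find_spec hex
    rw [hn] at h1
    exact h1
  have hcomm : ∀ x ∈ derivedSeries X n, ∀ y ∈ derivedSeries X n, Commute x y := by
    intro x hx y hy
    have h1 := (Subgroup.commutator_eq_bot_iff_le_centralizer).1 hDD hx
    exact (Subgroup.mem_centralizer_iff.1 h1 y hy).symm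
  haveI : Nontrivial (derivedSeries X n) := (Subgroup.nontrivial_iff_ne_bot _).2 hD
  have hcard : Nat.card (derivedSeries X n) ≠ 1 := by
    intro h
    exact hD (Subgroup.card_eq_one.1 h)
  obtain ⟨p, hp, hpd⟩ := Nat.exists_prime_and_dvd hcard
  haveI : Fact p.Prime := ⟨hp⟩
  obtain ⟨x, hx⟩ := exists_prime_orderOf_dvd_card' p hpd
  haveI hDn : (derivedSeries X n).Normal := derivedSeries_normal X n
  let P : Subgroup X :=
    { carrier := {y | y ∈ derivedSeries X n ∧ ∃ k : ℕ, y ^ (p ^ k) = 1}
      mul_mem' := by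
        rintro a b ⟨ha, k, hk⟩ ⟨hb, l, hl⟩
        refine ⟨mul_mem ha hb, k + l, ?_⟩
        rw [(hcomm a ha b hb).mul_pow, pow_add, pow_mul, hk, one_pow, mul_comm (p ^ k),
          pow_mul, hl, one_pow, one_mul]
      one_mem' := ⟨one_mem _, 0, one_pow _⟩
      inv_mem' := by
        rintro a ⟨ha, k, hk⟩
        exact ⟨inv_mem ha, k, by rw [inv_pow, hk, inv_one]⟩ }
  refine ⟨p, P, hp, ⟨?_⟩, ?_, ?_⟩
  · rintro a ⟨ha, k, hk⟩ g
    refine ⟨hDn.conj_mem a ha g, k, ?_⟩
    rw [conj_pow, hk, mul_one, mul_inv_cancel]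
  · rintro ⟨a, ha, k, hk⟩
    exact ⟨k, Subtype.ext hk⟩
  · intro hbot
    have hxP : (x : X) ∈ P := by
      refine ⟨x.2, 1, ?_⟩
      rw [pow_one, ← Subgroup.coe_pow, ← hx, pow_orderOf_eq_one]
      rfl
    rw [hbot, Subgroup.mem_bot] at hxP
    have hx1 : x = 1 := Subtype.ext hxP
    rw [hx1, orderOf_one] at hx
    exact hp.one_lt.ne hx

/-- With exactly `p + 1` Sylow `p`-subgroups, a Sylow `p`-subgroup `P` is transitive on the
others. -/
theorem sylow_transitive_rest {G : Type u} [Group G] [Finite G] {p : ℕ} [Fact p.Prime]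
    (h6 : Nat.card (Sylow p G) = p + 1) (P Q Q' : Sylow p G) (hQ : Q ≠ P) (hQ' : Q' ≠ P) :
    ∃ g ∈ (P : Subgroup G), g • Q = Q' := by
  classical
  have hp : p.Prime := Fact.out
  have hfixP : ∀ g ∈ (P : Subgroup G), g • P = P := fun g hg =>
    Sylow.smul_eq_iff_mem_normalizer.2 (Subgroup.le_normalizer hg)
  set O : Set (Sylow p G) := MulAction.orbit (↥(P : Subgroup G)) Q with hO
  have hPO : P ∉ O := by
    rintro ⟨g, hg⟩
    apply hQ
    have h1 : (g : G) • Q = P := hg
    have h2 : Q = (g : G)⁻¹ • P := eq_inv_smul_iff.2 h1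
    rw [h2]
    exact hfixP _ (inv_mem g.2)
  obtain ⟨n, hn⟩ := P.2.card_orbit (α := Sylow p G) Q
  have hn0 : n ≠ 0 := by
    intro h0
    rw [h0, pow_zero] at hn
    have hss : Subsingleton (MulAction.orbit (↥(P : Subgroup G)) Q) :=
      (Nat.card_eq_one_iff_unique.1 hn).1
    have hfix : Q ∈ MulAction.fixedPoints (↥(P : Subgroup G)) (Sylow p G) := by
      rw [MulAction.mem_fixedPoints]
      intro g
      exact congrArg Subtype.val
        (Subsingleton.elim (⟨g • Q, MulAction.mem_orbit _ _⟩ : MulAction.orbit (↥(P : Subgroup G)) Q)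
          ⟨Q, MulAction.mem_orbit_self _⟩)
    have hle : (P : Subgroup G) ≤ Q := P.2.sylow_mem_fixedPoints_iff.1 hfix
    exact hQ (Sylow.ext (P.3 Q.2 hle))
  have hsub : O ⊆ ({P} : Set (Sylow p G))ᶜ := by
    intro R hR
    simp only [Set.mem_compl_iff, Set.mem_singleton_iff]
    rintro rfl
    exact hPO hR
  have hcompl : (({P} : Set (Sylow p G))ᶜ).ncard = p := by
    rw [Set.ncard_compl, Set.ncard_singleton, h6]
    simp
  have hOcard : O.ncard = p ^ n := by
    rw [← hn]
    rfl
  have hle : (({P} : Set (Sylow p G))ᶜ).ncard ≤ O.ncard := by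
    rw [hcompl, hOcard]
    exact Nat.le_self_pow hn0 p
  have hOeq : O = ({P} : Set (Sylow p G))ᶜ :=
    Set.eq_of_subset_of_ncard_le hsub hle (Set.toFinite _)
  have hQ'O : Q' ∈ O := by
    rw [hOeq]
    simpa using hQ'
  obtain ⟨g, hg⟩ := hQ'O
  exact ⟨g, g.2, hg⟩

theorem six_ne_prime_pow {q n : ℕ} (hq : q.Prime) : q ^ n ≠ 6 := by
  intro h
  have hn : n ≠ 0 := by
    rintro rfl
    simp at h
  have hq6 : q ∣ 6 := by
    rw [← h]
    exact dvd_pow_self q hn
  have hqle : q ≤ 6 := Nat.le_of_dvd (by norm_num) hq6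
  have h2 := hq.two_le
  have hcases : q = 2 ∨ q = 3 := by
    interval_cases q <;> first | omega | (exfalso; revert hq; decide)
  rcases hcases with rfl | rfl
  · have h3 : (3 : ℕ) ∣ 2 ^ n := by rw [h]; norm_num
    have := (Nat.Prime.dvd_of_dvd_pow (by norm_num : Nat.Prime 3) h3)
    omega
  · have h3 : (2 : ℕ) ∣ 3 ^ n := by rw [h]; norm_num
    have := (Nat.Prime.dvd_of_dvd_pow (by norm_num : Nat.Prime 2) h3)
    omega

/-- If there are exactly six Sylow `5`-subgroups, every normal `q`-subgroup normalises each of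
them. -/
theorem normal_pgroup_le_normalizer_sylow {G : Type u} [Group G] [Finite G]
    [Fact (Nat.Prime 5)]
    (h6 : Nat.card (Sylow 5 G) = 6) {q : ℕ} (hq : q.Prime) (A : Subgroup G) [hAn : A.Normal]
    (hA : IsPGroup q A) (P : Sylow 5 G) : A ≤ Subgroup.normalizer (P : Set G) := by
  classical
  haveI : Fact q.Prime := ⟨hq⟩
  intro a ha
  by_contra hne
  have haP : a • P ≠ P := fun h => hne (Sylow.smul_eq_iff_mem_normalizer.1 h)
  have hfixP : ∀ g ∈ (P : Subgroup G), g • P = P := fun g hg =>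
    Sylow.smul_eq_iff_mem_normalizer.2 (Subgroup.le_normalizer hg)
  have horb : MulAction.orbit (↥A) P = Set.univ := by
    rw [Set.eq_univ_iff_forall]
    intro Q
    by_cases hQP : Q = P
    · rw [hQP]
      exact MulAction.mem_orbit_self P
    · obtain ⟨g, hg, hgQ⟩ := sylow_transitive_rest (p := 5) (by rw [h6]) P (a • P) Q haP hQP
      refine ⟨⟨g * a * g⁻¹, hAn.conj_mem a ha g⟩, ?_⟩
      change (g * a * g⁻¹) • P = Q
      rw [mul_smul, mul_smul, hfixP _ (inv_mem hg)]
      exact hgQ
  obtain ⟨n, hn⟩ := hA.card_orbit (α := Sylow 5 G) P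
  have h1 : Nat.card (MulAction.orbit (↥A) P) = 6 := by
    rw [horb, Nat.card_congr (Equiv.Set.univ _), h6]
  rw [h1] at hn
  exact six_ne_prime_pow hq hn.symm

theorem card_sylow_five_ne_six_aux [Fact (Nat.Prime 5)] :
    ∀ (n : ℕ) (G : Type u) [Group G] [Finite G] [Group.IsSolvable G],
      Nat.card G = n → Nat.card (Sylow 5 G) ≠ 6 := by
  intro n
  induction n using Nat.strong_induction_on with
  | _ n ih =>
    intro G _ _ _ hn h6
    haveI : Nontrivial G := by
      by_contra hnt
      rw [not_nontrivial_iff_subsingleton] at hnt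
      haveI : Subsingleton (Sylow 5 G) :=
        ⟨fun P Q => Sylow.ext (Subsingleton.elim _ _)⟩
      have := Finite.card_le_one_iff_subsingleton.2 ‹Subsingleton (Sylow 5 G)›
      omega
    obtain ⟨q, A, hq, hAn, hA, hAne⟩ := exists_normal_pgroup_ne_bot G
    haveI := hAn
    have hAN : ∀ P : Sylow 5 G, A ≤ Subgroup.normalizer (P : Set G) := fun P =>
      normal_pgroup_le_normalizer_sylow h6 hq A hA P
    have hsurj : Function.Surjective (QuotientGroup.mk' A) := QuotientGroup.mk'_surjective A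
    have hinj : Function.Injective
        (Sylow.mapSurjective hsurj : Sylow 5 G → Sylow 5 (G ⧸ A)) := by
      intro P Q hPQ
      have h1 : (P : Subgroup G).map (QuotientGroup.mk' A)
          = (Q : Subgroup G).map (QuotientGroup.mk' A) := by
        have := congrArg (fun S : Sylow 5 (G ⧸ A) => (S : Subgroup (G ⧸ A))) hPQ
        simpa using this
      have h2 : (P : Subgroup G) ⊔ A = (Q : Subgroup G) ⊔ A := by
        have := congrArg (Subgroup.comap (QuotientGroup.mk' A)) h1
        rwa [Subgroup.comap_map_eq, Subgroup.comap_map_eq, QuotientGroup.ker_mk'] at this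
      have h3 : (Q : Subgroup G) ≤ Subgroup.normalizer (P : Set G) := by
        calc (Q : Subgroup G) ≤ (Q : Subgroup G) ⊔ A := le_sup_left
          _ = (P : Subgroup G) ⊔ A := h2.symm
          _ ≤ _ := sup_le Subgroup.le_normalizer (hAN P)
      have h4 : (Q : Subgroup G) ≤ P := by
        have := Q.2.inf_normalizer_sylow P
        rw [inf_eq_left.2 h3] at this
        exact inf_eq_left.1 this.symm
      exact (Sylow.ext (Q.3 P.2 h4))
    have hcard : Nat.card (Sylow 5 (G ⧸ A)) = 6 := by
      rw [← h6]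
      exact (Nat.card_eq_of_bijective _ ⟨hinj, Sylow.mapSurjective_surjective hsurj 5⟩).symm
    have hlt : Nat.card (G ⧸ A) < n := by
      have h1 := Subgroup.card_eq_card_quotient_mul_card_subgroup A
      have h2 : 1 < Nat.card A := by
        rcases Nat.lt_or_ge 1 (Nat.card A) with h | h
        · exact h
        · exact absurd (A.card_le_one_iff_eq_bot.1 h) hAne
      have h3 : 0 < Nat.card (G ⧸ A) := Nat.card_pos
      rw [← hn, h1]
      nlinarith
    exact ih _ hlt (G ⧸ A) rfl hcard

/-- **A finite solvable group never has exactly six Sylow `5`-subgroups.** -/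
theorem card_sylow_five_ne_six (G : Type u) [Group G] [Finite G] [Group.IsSolvable G]
    [Fact (Nat.Prime 5)] : Nat.card (Sylow 5 G) ≠ 6 :=
  card_sylow_five_ne_six_aux _ G rfl

/-- **[SYL6]** for project FOT (S3999). -/
theorem pkgSyl6 : Cfsg.Agent.Lib.Helper50.FOT.PkgSyl6.{u} := by
  intro H _ _ hsol
  haveI := hsol
  haveI : Fact (Nat.Prime 5) := ⟨by norm_num⟩
  exact card_sylow_five_ne_six H

end Cfsg.Agent.Lib.Helper78.FOT

section checks
example : Cfsg.Agent.Lib.Helper50.FOT.PkgSyl6.{0} := Cfsg.Agent.Lib.Helper78.FOT.pkgSyl6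
example : Cfsg.Agent.Lib.Helper50.FOT.PkgSyl6.{3} := Cfsg.Agent.Lib.Helper78.FOT.pkgSyl6
end checks
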